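import Mathlib

set_option autoImplicit false

/-! # helper14 farm Inv2: pieces AR1, AR2 -/

namespace Cfsg.Agent.Lib.Helper11.Inv2

variable {F : Type*} [Field F]

theorem ringChar_ne_two_of_odd [Fintype F] (hodd : Odd (Fintype.card F)) : ringChar F ≠ 2 := by
  intro h
  have h1 := FiniteField.even_card_iff_char_two.1 h
  have h2 := Nat.odd_iff.1 hodd
  omega

theorem isSquare_neg_one_of_sq [Fintype F] (q₀ : ℕ) (hq : Fintype.card F = q₀ ^ 2)
    (hodd : Odd (Fintype.card F)) : IsSquare (-1 : F) := by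
  rw [FiniteField.isSquare_neg_one_iff, hq]
  rw [hq] at hodd
  have h0 : q₀ % 2 = 1 := by
    rcases Nat.even_or_odd q₀ with h | h
    · exfalso
      have : Even (q₀ ^ 2) := h.pow_of_ne_zero (by norm_num)
      exact (Nat.not_even_iff_odd.2 hodd) this
    · exact Nat.odd_iff.1 h
  have h4 : q₀ % 4 = 1 ∨ q₀ % 4 = 3 := by omega
  rw [pow_two, Nat.mul_mod]
  rcases h4 with h | h <;> rw [h] <;> norm_num

theorem not_isSquare_neg [Fintype F] (q₀ : ℕ) (hq : Fintype.card F = q₀ ^ 2)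
    (hodd : Odd (Fintype.card F)) (z : F) (hz : ¬ IsSquare z) : ¬ IsSquare (-z) := by
  intro h
  apply hz
  have := (isSquare_neg_one_of_sq q₀ hq hodd).mul h
  simpa using this

/-- [AR1] -/
theorem arith_one [Fintype F] (q₀ : ℕ) (hq : Fintype.card F = q₀ ^ 2) (hodd : Odd (Fintype.card F))
    (z : F) (hz : ¬ IsSquare z) (k : ℕ) (hk0 : 0 < k) (hk : (-z) ^ k = 1) :
    padicValNat 2 (Fintype.card F - 1) < padicValNat 2 (2 * k) := by
  have hch := ringChar_ne_two_of_odd hodd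
  have hw := not_isSquare_neg q₀ hq hodd z hz
  have hw0 : -z ≠ 0 := by
    intro h; apply hw; rw [h]; exact IsSquare.zero
  have hE : (-z) ^ (Fintype.card F / 2) ≠ 1 := fun h => hw ((FiniteField.isSquare_iff hch hw0).2 h)
  have hq1 : (-z) ^ (Fintype.card F - 1) = 1 := FiniteField.pow_card_sub_one_eq_one _ hw0
  obtain ⟨N, hN⟩ : ∃ N, N = Fintype.card F - 1 := ⟨_, rfl⟩
  have hc2 := Nat.odd_iff.1 hodd
  have hN2 : Fintype.card F / 2 = N / 2 := by omega
  have hNpos : 0 < N := by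
    have := Fintype.one_lt_card (α := F); omega
  rw [← hN] at hq1 ⊢
  rw [hN2] at hE
  have hg : (-z) ^ (Nat.gcd k N) = 1 := pow_gcd_eq_one.2 ⟨hk, hq1⟩
  obtain ⟨t, ht⟩ := Nat.gcd_dvd_right k N
  have hgpos : 0 < Nat.gcd k N := Nat.gcd_pos_of_pos_left _ hk0
  have htpos : 0 < t := by
    rcases Nat.eq_zero_or_pos t with h | h
    · rw [h, mul_zero] at ht; omega
    · exact h
  rw [padicValNat.mul (by norm_num) hk0.ne', padicValNat.self (by norm_num)]
  rcases Nat.even_or_odd t with he | ho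
  · exfalso
    obtain ⟨t', ht'⟩ := he
    apply hE
    have : N / 2 = Nat.gcd k N * t' := by
      have : N = 2 * (Nat.gcd k N * t') := by
        conv_lhs => rw [ht, ht']
        ring
      omega
    rw [this, pow_mul, hg, one_pow]
  · have h1 : padicValNat 2 N = padicValNat 2 (Nat.gcd k N) := by
      conv_lhs => rw [ht]
      rw [padicValNat.mul hgpos.ne' htpos.ne',
        padicValNat.eq_zero_of_not_dvd (n := t) (by
          intro h; exact (Nat.not_even_iff_odd.2 ho) (even_iff_two_dvd.2 h)), add_zero]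
    have h2 : padicValNat 2 (Nat.gcd k N) ≤ padicValNat 2 k := by
      rw [← padicValNat_dvd_iff_le hk0.ne']
      exact pow_padicValNat_dvd.trans (Nat.gcd_dvd_left k N)
    omega

/-- [AR2] -/
theorem arith_two [Fintype F] (q₀ : ℕ) (hq : Fintype.card F = q₀ ^ 2) (hodd : Odd (Fintype.card F))
    (n : ℕ) (hn : padicValNat 2 (Fintype.card F - 1) < padicValNat 2 n) :
    ∃ (k : ℕ) (z : F), n = 2 * k ∧ ¬ IsSquare z ∧ (-z) ^ k = 1 := by
  have hch := ringChar_ne_two_of_odd hodd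
  have hn0 : n ≠ 0 := by
    rintro rfl; simp at hn
  have h2n : 2 ∣ n := by
    by_contra h
    rw [padicValNat.eq_zero_of_not_dvd h] at hn
    omega
  obtain ⟨k, rfl⟩ := h2n
  have hk0 : k ≠ 0 := by rintro rfl; simp at hn0
  rw [padicValNat.mul (by norm_num) hk0, padicValNat.self (by norm_num)] at hn
  obtain ⟨w₀, hw₀⟩ := FiniteField.exists_nonsquare hch
  have hw00 : w₀ ≠ 0 := by
    intro h; apply hw₀; rw [h]; exact IsSquare.zero
  obtain ⟨N, hN⟩ : ∃ N, N = Fintype.card F - 1 := ⟨_, rfl⟩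
  have hNpos : 0 < N := by
    have := Fintype.one_lt_card (α := F); omega
  rw [← hN] at hn
  obtain ⟨m, hm⟩ : 2 ^ padicValNat 2 N ∣ N := pow_padicValNat_dvd
  have hmodd : Odd m := by
    rw [← Nat.not_even_iff_odd]
    intro he
    obtain ⟨m', hm'⟩ := he
    have : 2 ^ (padicValNat 2 N + 1) ∣ N := ⟨m', by
      conv_lhs => rw [hm, hm']
      ring⟩
    rw [padicValNat_dvd_iff_le hNpos.ne'] at this
    omega
  have hwns : ¬ IsSquare (w₀ ^ m) := by
    intro h
    apply hw₀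
    obtain ⟨j, hj⟩ := hmodd
    have h2 : IsSquare ((w₀ ^ j * w₀ ^ j)⁻¹) := (IsSquare.mul_self (w₀ ^ j)).inv
    have h3 := h.mul h2
    have e : w₀ ^ m * (w₀ ^ j * w₀ ^ j)⁻¹ = w₀ := by
      have hj0 : w₀ ^ j ≠ 0 := pow_ne_zero _ hw00
      rw [hj]
      field_simp
      ring
    rwa [e] at h3
  refine ⟨k, -(w₀ ^ m), rfl, not_isSquare_neg q₀ hq hodd _ hwns, ?_⟩
  rw [neg_neg]
  have hdk : 2 ^ padicValNat 2 N ∣ k := by
    rw [padicValNat_dvd_iff_le hk0]; omega
  obtain ⟨c, hc⟩ := hdk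
  have h1 : w₀ ^ N = 1 := by rw [hN]; exact FiniteField.pow_card_sub_one_eq_one _ hw00
  calc (w₀ ^ m) ^ k = (w₀ ^ (2 ^ padicValNat 2 N * m)) ^ c := by
        conv_lhs => rw [hc]
        rw [← pow_mul, ← pow_mul]; congr 1; ring
    _ = 1 := by rw [← hm, h1, one_pow]

end Cfsg.Agent.Lib.Helper11.Inv2
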