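import Mathlib
import Cfsg.Prelude.Def_GeometricClasses
import Cfsg.Agent.Lib.Helper99.SubfieldGrp
import Cfsg.Agent.Lib.Helper68.SpD.I2

set_option autoImplicit false
open scoped MatrixGroups

/-! # helper14 farm Inv2: piece IDX -/

namespace Cfsg.Agent.Lib.Helper11.Inv2

variable {F : Type*} [Field F]

theorem geo_nat (b k : ℕ) : (b + 1) ^ k = b * (∑ t ∈ Finset.range k, (b + 1) ^ t) + 1 := by
  induction k with
  | zero => simp
  | succ k ih =>
    have h : (b + 1) ^ (k + 1) = b * (b + 1) ^ k + (b + 1) ^ k := by ring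
    rw [h, Finset.sum_range_succ, mul_add]
    linarith [ih]

theorem odd_geo (a k : ℕ) (ha : Odd a) (hk : Odd k) : Odd (∑ t ∈ Finset.range k, a ^ t) := by
  rw [Finset.odd_sum_iff_odd_card_odd]
  have : (Finset.range k).filter (fun t => Odd (a ^ t)) = Finset.range k := by
    apply Finset.filter_true_of_mem
    intro t _
    exact ha.pow
  rw [this, Finset.card_range]
  exact hk

/-- `a ^ k - 1 = (a - 1) * odd` for odd `a`, `k` -/
theorem pow_sub_one_odd (a k : ℕ) (ha : Odd a) (hk : Odd k) :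
    ∃ c, Odd c ∧ a ^ k - 1 = (a - 1) * c := by
  refine ⟨_, odd_geo a k ha hk, ?_⟩
  obtain ⟨b, rfl⟩ : ∃ b, a = b + 1 := ⟨a - 1, by have := ha.pos; omega⟩
  rw [geo_nat b k]
  simp

theorem card_formula_odd (q₀ k n : ℕ) (hq₀ : Odd q₀) (hk : Odd k) :
    ∃ c, Odd c ∧ (q₀ ^ k) ^ (n * (n - 1) / 2) * ∏ i ∈ Finset.range (n - 1), ((q₀ ^ k) ^ (i + 2) - 1)
      = (q₀ ^ (n * (n - 1) / 2) * ∏ i ∈ Finset.range (n - 1), (q₀ ^ (i + 2) - 1)) * c := by
  choose f hf1 hf2 using fun i : ℕ => pow_sub_one_odd (q₀ ^ (i + 2)) k hq₀.pow hk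
  obtain ⟨j, hj⟩ : ∃ j, k = j + 1 := ⟨k - 1, by have := hk.pos; omega⟩
  refine ⟨q₀ ^ (j * (n * (n - 1) / 2)) * ∏ i ∈ Finset.range (n - 1), f i, ?_, ?_⟩
  · apply Odd.mul hq₀.pow
    exact Finset.prod_induction _ Odd (fun _ _ => Odd.mul) odd_one (fun i _ => hf1 i)
  · have h1 : ∀ i ∈ Finset.range (n - 1), (q₀ ^ k) ^ (i + 2) - 1 = (q₀ ^ (i + 2) - 1) * f i := by
      intro i _
      rw [← hf2 i, ← pow_mul, ← pow_mul, mul_comm]
    rw [Finset.prod_congr rfl h1, Finset.prod_mul_distrib, ← pow_mul, hj]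
    ring

/-- [IDX] for odd `q` and odd `k` the index is odd -/
theorem odd_index [Fintype F] {n : ℕ} (F₀ : Subfield F) (k : ℕ) (hk : Odd k)
    (hc : Fintype.card F = Nat.card F₀ ^ k) (hodd : Odd (Fintype.card F)) :
    ¬ 2 ∣ ((Cfsg.Geo.subfieldSubgroup F₀ 1).comap (Matrix.SpecialLinearGroup.toGL :
      Matrix.SpecialLinearGroup (Fin n) F →* GL (Fin n) F)).index := by
  classical
  rcases Nat.eq_zero_or_pos n with rfl | hn
  · -- the group is trivial
    have : Subsingleton (Matrix.SpecialLinearGroup (Fin 0) F) :=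
      ⟨fun a b => by ext i; exact i.elim0⟩
    rw [Subgroup.index_eq_one.2 (Subsingleton.elim _ _)]
    norm_num
  let _ : Fintype F₀ := Fintype.ofFinite F₀
  have hq₀ : Odd (Nat.card F₀) := by
    rcases Nat.even_or_odd (Nat.card F₀) with h | h
    · exfalso
      rw [hc] at hodd
      exact (Nat.not_even_iff_odd.2 hodd) (h.pow_of_ne_zero hk.pos.ne')
    · exact h
  set φ : Matrix.SpecialLinearGroup (Fin n) F₀ →* Matrix.SpecialLinearGroup (Fin n) F :=
    Matrix.SpecialLinearGroup.map (F₀.subtype : F₀ →+* F) with hφ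
  have hφinj : Function.Injective φ := by
    intro a b hab
    ext i j
    have h := congrArg (fun x : Matrix.SpecialLinearGroup (Fin n) F => x.1 i j) hab
    exact h
  have hle : φ.range ≤ ((Cfsg.Geo.subfieldSubgroup F₀ 1).comap (Matrix.SpecialLinearGroup.toGL :
      Matrix.SpecialLinearGroup (Fin n) F →* GL (Fin n) F)) := by
    rintro _ ⟨y, rfl⟩
    rw [Subgroup.mem_comap, Cfsg.Agent.Lib.Helper99.mem_subfieldSubgroup_iff]
    refine ⟨1, one_ne_zero, fun i j => ?_⟩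
    rw [one_smul, inv_one, one_mul, mul_one]
    exact (y.1 i j).2
  intro h2
  have h2' : 2 ∣ φ.range.index := h2.trans (Subgroup.index_dvd_of_le hle)
  have hcard : Nat.card φ.range = Nat.card (Matrix.SpecialLinearGroup (Fin n) F₀) :=
    Nat.card_congr (MonoidHom.ofInjective hφinj).symm.toEquiv
  have hmul := φ.range.card_mul_index
  rw [hcard, Cfsg.Agent.Lib.Helper68.SpD.card_SL n hn, Cfsg.Agent.Lib.Helper68.SpD.card_SL n hn, hc,
    ← Nat.card_eq_fintype_card (α := F₀)] at hmul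
  obtain ⟨c, hcodd, hceq⟩ := card_formula_odd (Nat.card F₀) k n hq₀ hk
  rw [hceq] at hmul
  have hpos : 0 < Nat.card F₀ ^ (n * (n - 1) / 2) *
      ∏ i ∈ Finset.range (n - 1), (Nat.card F₀ ^ (i + 2) - 1) := by
    have h1 : 1 < Nat.card F₀ := Finite.one_lt_card
    apply Nat.mul_pos (Nat.pow_pos (by omega))
    apply Finset.prod_pos
    intro i _
    have : 1 < Nat.card F₀ ^ (i + 2) := Nat.one_lt_pow (by omega) h1
    omega
  have := Nat.eq_of_mul_eq_mul_left hpos hmul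
  rw [this] at h2'
  exact (Nat.not_even_iff_odd.2 hcodd) (even_iff_two_dvd.2 h2')

end Cfsg.Agent.Lib.Helper11.Inv2
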